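import Cfsg.Agent.GH.GL4Seven
import Cfsg.Agent.H252.LT.Rows

/-!
# S2927, criterion KI: extraspecial 2-central centralizers

`core` : `Q ≤ D ≤ C` normal, `Q` extraspecial of order `2 ^ (2n+1)` with centre `{1, z}` and `C_C(Q) ≤ {1, z}`,
`D` perfect, the normal subgroups of `C` between `Q` and `D` have index in `D` divisible by `s` with
`s ∤ |GL_j(2)|`, `j ≤ n`: then every normal elementary abelian 2-subgroup of `C` containing `z` is `{1, z}`.
-/

set_option autoImplicit false
set_option linter.unusedSectionVars false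

namespace Cfsg.Agent.H828.LT

open Subgroup Cfsg

section core

variable {C : Type*} [Group C] [Finite C] {z : C}

/-- abelian subgroups of extraspecial groups are small -/
theorem card_abelian (hz1 : z ≠ 1) (hzz : z * z = 1) (hzc : ∀ c : C, c * z = z * c) {Q E : Subgroup C}
    (hQ2 : ∀ a ∈ Q, ∀ b ∈ Q, a * b = b * a ∨ a * b = z * (b * a))
    (hQZ : ∀ a ∈ Q, (∀ b ∈ Q, a * b = b * a) → a = 1 ∨ a = z) (hEQ : E ≤ Q)
    (hE : ∀ a ∈ E, ∀ b ∈ E, a * b = b * a) : Nat.card E ^ 2 ≤ 2 * Nat.card Q := by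
  classical
  have := Fintype.ofFinite Q
  have := Fintype.ofFinite E
  let f : C → C → ℤ := fun a b => if a * b = b * a then 1 else -1
  have hne : ∀ c : C, z * c ≠ c := fun c h => hz1 (by simpa using h)
  have hflip : ∀ e ∈ Q, ∀ q₀ ∈ Q, e * q₀ ≠ q₀ * e → ∀ q ∈ Q, f e (q₀ * q) = - f e q := by
    intro e he q₀ hq₀ hne0 q hq
    have h0 : e * q₀ = z * (q₀ * e) := (hQ2 e he q₀ hq₀).resolve_left hne0
    have h1 : e * (q₀ * q) = z * (q₀ * (e * q)) := by
      rw [← mul_assoc, h0]; simp only [mul_assoc]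
    rcases hQ2 e he q hq with h2 | h2
    · have h3 : f e q = 1 := if_pos h2
      have h4 : f e (q₀ * q) = -1 := by
        apply if_neg
        rw [h1, h2, ← mul_assoc q₀ q e]
        exact hne _
      rw [h3, h4]
    · have h3 : f e q = -1 := by
        apply if_neg
        rw [h2]
        exact hne _
      have h4 : f e (q₀ * q) = 1 := by
        apply if_pos
        rw [h1, h2, ← mul_assoc q₀ z, hzc q₀, mul_assoc z q₀, ← mul_assoc z z, hzz, one_mul,
          mul_assoc]
      rw [h3, h4, neg_neg]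
  have hswap : ∀ a b : C, f a b = f b a := by
    intro a b
    by_cases h : a * b = b * a
    · rw [show f a b = 1 from if_pos h, show f b a = 1 from if_pos h.symm]
    · rw [show f a b = -1 from if_neg h, show f b a = -1 from if_neg fun h' => h h'.symm]
  -- sum over `Q` for fixed `e`
  have hS1 : ∀ e ∈ E, e ≠ 1 → e ≠ z → ∑ q : Q, f e q = 0 := by
    intro e he h1 h2
    obtain ⟨q₀, hq₀, hne0⟩ : ∃ q₀ ∈ Q, e * q₀ ≠ q₀ * e := by
      by_contra hcon
      push Not at hcon
      rcases hQZ e (hEQ he) hcon with h | h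
      · exact h1 h
      · exact h2 h
    have h3 : ∑ q : Q, f e q = ∑ q : Q, - f e q := by
      rw [← Equiv.sum_comp (Equiv.mulLeft (⟨q₀, hq₀⟩ : Q)) (fun q : Q => f e q)]
      exact Finset.sum_congr rfl fun q _ => hflip e (hEQ he) q₀ hq₀ hne0 q q.2
    rw [Finset.sum_neg_distrib] at h3
    omega
  have hS2 : ∀ q ∈ Q, 0 ≤ ∑ e : E, f e q := by
    intro q hq
    by_cases h : ∃ e₀ ∈ E, e₀ * q ≠ q * e₀
    · obtain ⟨e₀, he₀, hne0⟩ := h
      have h3 : ∑ e : E, f e q = ∑ e : E, - f e q := by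
        rw [← Equiv.sum_comp (Equiv.mulLeft (⟨e₀, he₀⟩ : E)) (fun e : E => f e q)]
        refine Finset.sum_congr rfl fun e _ => ?_
        change f (e₀ * e) q = - f e q
        rw [hswap, hswap e]
        exact hflip q hq e₀ (hEQ he₀) (fun h' => hne0 h'.symm) e (hEQ e.2)
      rw [Finset.sum_neg_distrib] at h3
      omega
    · push Not at h
      exact Finset.sum_nonneg fun e _ => by
        rw [show f e q = 1 from if_pos (h e e.2)]; norm_num
  have hS3 : ∀ q ∈ E, ∑ e : E, f e q = Nat.card E := by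
    intro q hq
    rw [Finset.sum_congr rfl (fun (e : E) _ => show f e q = 1 from if_pos (hE e e.2 q hq))]
    simp
  have hA : ∑ e : E, ∑ q : Q, f e q ≤ 2 * Nat.card Q := by
    have h1 : ∀ e : E, ∑ q : Q, f e q ≤ if (e : C) = 1 ∨ (e : C) = z then (Nat.card Q : ℤ) else 0 := by
      intro e
      split_ifs with h
      · calc ∑ q : Q, f e q ≤ ∑ q : Q, (1 : ℤ) := Finset.sum_le_sum fun q _ => by
              change (if _ then (1 : ℤ) else -1) ≤ 1
              split_ifs <;> norm_num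
          _ = Nat.card Q := by simp
      · push Not at h
        exact (hS1 e e.2 h.1 h.2).le
    refine (Finset.sum_le_sum fun e _ => h1 e).trans ?_
    rw [← Finset.sum_filter, Finset.sum_const]
    have h2 : (Finset.univ.filter fun e : E => (e : C) = 1 ∨ (e : C) = z).card ≤ 2 := by
      have h3 : (Finset.univ.filter fun e : E => (e : C) = 1 ∨ (e : C) = z).card ≤
          ({1, z} : Finset C).card := by
        apply Finset.card_le_card_of_injOn (fun e : E => (e : C))
        · intro e he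
          simpa using he
        · intro a _ b _ hab
          exact Subtype.ext hab
      exact h3.trans (Finset.card_le_two)
    rw [nsmul_eq_mul]
    have h4 : (0 : ℤ) ≤ Nat.card Q := by positivity
    have h5 : ((Finset.univ.filter fun e : E => (e : C) = 1 ∨ (e : C) = z).card : ℤ) ≤ 2 := by
      exact_mod_cast h2
    nlinarith
  have hB : (Nat.card E : ℤ) ^ 2 ≤ ∑ e : E, ∑ q : Q, f e q := by
    rw [Finset.sum_comm]
    let ι : E → Q := fun e => ⟨e, hEQ e.2⟩
    have hι : Function.Injective ι := fun a b h => Subtype.ext (congrArg (fun x : Q => (x : C)) h)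
    calc (Nat.card E : ℤ) ^ 2 = ∑ q : E, ∑ e : E, f e q := by
          rw [Finset.sum_congr rfl (fun (q : E) _ => hS3 q q.2)]
          simp [pow_two]
      _ = ∑ q ∈ Finset.univ.map ⟨ι, hι⟩, ∑ e : E, f e q := by
          rw [Finset.sum_map]
          rfl
      _ ≤ ∑ q : Q, ∑ e : E, f e q :=
          Finset.sum_le_sum_of_subset_of_nonneg (Finset.subset_univ _) fun q _ _ => hS2 q q.2
  exact_mod_cast hB.trans hA

/-- **The criterion.** -/
theorem core (hz1 : z ≠ 1) (hzz : z * z = 1) (hzc : ∀ c : C, c * z = z * c) {Q D E : Subgroup C}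
    (hQn : Q.Normal) (hDn : D.Normal) (hQD : Q ≤ D) {n s : ℕ}
    (hQ2 : ∀ a ∈ Q, ∀ b ∈ Q, a * b = b * a ∨ a * b = z * (b * a))
    (hQc : Nat.card Q = 2 ^ (2 * n + 1)) (hzQ : z ∈ Q)
    (hcen : ∀ c : C, (∀ q ∈ Q, c * q = q * c) → c = 1 ∨ c = z)
    (hperf : ⁅D, D⁆ = D)
    (hN2 : ∀ N : Subgroup C, N.Normal → N ≤ D → IsPGroup 2 N → N ≤ Q)
    (hNs : ∀ N : Subgroup C, N.Normal → Q ≤ N → N ≤ D → N ≠ D → s ∣ N.relIndex D)
    (hs : ∀ j ≤ n, ¬ s ∣ ∏ i : Fin j, (2 ^ j - 2 ^ (i : ℕ)))
    (hEn : E.Normal) (hE : IsElementaryAbelian 2 E) (hzE : z ∈ E) : ∀ e ∈ E, e = 1 ∨ e = z := by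
  have hEc : ∀ a ∈ E, ∀ b ∈ E, a * b = b * a := fun a ha b hb => by
    have h := hE.1.is_comm.comm (⟨a, ha⟩ : E) ⟨b, hb⟩
    exact congrArg Subtype.val h
  have hE2 : ∀ a ∈ E, a * a = 1 := fun a ha => by
    have h := hE.2 a ha
    rwa [pow_two] at h
  have hE2p : ∀ F : Subgroup C, F ≤ E → IsPGroup 2 F := fun F hF =>
    fun x => ⟨1, by
      apply Subtype.ext
      rw [pow_one, pow_two]
      exact hE2 x (hF x.2)⟩
  have hZn : (zpowers z).Normal := by
    refine ⟨fun a ha g => ?_⟩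
    obtain ⟨k, rfl⟩ := mem_zpowers_iff.1 ha
    have h : Commute g (z ^ k) := (show Commute g z from hzc g).zpow_right k
    rw [h.eq, mul_inv_cancel_right]
    exact ha
  have hz2 : Nat.card (zpowers z) = 2 := by
    rw [Nat.card_zpowers]
    exact orderOf_eq_prime (by rw [pow_two, hzz]) hz1
  have hZmem : ∀ x ∈ zpowers z, x = 1 ∨ x = z := by
    intro x hx
    obtain ⟨k, rfl⟩ := mem_zpowers_iff.1 hx
    rcases Int.even_or_odd' k with ⟨m, rfl | rfl⟩
    · left
      rw [zpow_mul, zpow_two, hzz, one_zpow]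
    · right
      rw [zpow_add, zpow_mul, zpow_two, hzz, one_zpow, one_mul, zpow_one]
  -- `E₀ = E ⊓ Q`
  have hE0n : (E ⊓ Q).Normal := inferInstance
  have hzE0 : z ∈ E ⊓ Q := ⟨hzE, hzQ⟩
  have hcard := card_abelian hz1 hzz hzc hQ2 (fun a ha h => hcen a h) (inf_le_right : E ⊓ Q ≤ Q)
    (fun a ha b hb => hEc a ha.1 b hb.1)
  let π := QuotientGroup.mk' (zpowers z)
  let A : Subgroup (C ⧸ zpowers z) := (E ⊓ Q).map π
  have hAn : A.Normal := hE0n.map π (QuotientGroup.mk'_surjective _)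
  have hA2 : ∀ a : A, a * a = 1 := by
    rintro ⟨_, x, hx, rfl⟩
    apply Subtype.ext
    change π x * π x = 1
    rw [← map_mul, hE2 x hx.1, map_one]
  have hAp : IsPGroup 2 A := fun a => ⟨1, by rw [pow_one, pow_two]; exact hA2 a⟩
  have hf2 : Fact (Nat.Prime 2) := ⟨Nat.prime_two⟩
  obtain ⟨j, hj⟩ := IsPGroup.iff_card.1 hAp
  have hAcard : Nat.card ↥(E ⊓ Q : Subgroup C) = 2 * Nat.card A := by
    have h1 : Nat.card A = (zpowers z).relIndex (E ⊓ Q) := by
      rw [← Subgroup.relIndex_ker, QuotientGroup.ker_mk']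
    have h2 := relIndex_mul_relIndex ⊥ (zpowers z) (E ⊓ Q) bot_le (by
      rw [zpowers_le]
      exact hzE0)
    rw [relIndex_bot_left, relIndex_bot_left, hz2] at h2
    rw [h1, h2]
  have hjn : j ≤ n := by
    rw [hAcard, hj, hQc] at hcard
    have h1 : 2 ^ (2 * j + 2) ≤ 2 ^ (2 * n + 2) := by
      calc 2 ^ (2 * j + 2) = (2 * 2 ^ j) ^ 2 := by ring
        _ ≤ 2 * 2 ^ (2 * n + 1) := hcard
        _ = 2 ^ (2 * n + 2) := by ring
    have h2 := (Nat.pow_le_pow_iff_right (by norm_num : 1 < 2)).1 h1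
    omega
  let φ : C →* MulAut A := (MulAut.conjNormal (H := A)).comp π
  have hφ : ∀ c : C, c ∈ φ.ker ↔ ∀ e ∈ E ⊓ Q, c * e * c⁻¹ * e⁻¹ ∈ zpowers z := by
    intro c
    rw [MonoidHom.mem_ker]
    constructor
    · intro h e he
      have h1 := congrArg (fun f : MulAut A => ((f ⟨π e, e, he, rfl⟩ : A) : C ⧸ zpowers z)) h
      have h2 : π c * π e * (π c)⁻¹ = π e := h1
      rw [← QuotientGroup.eq_one_iff]
      change π (c * e * c⁻¹ * e⁻¹) = 1
      rw [map_mul, map_mul, map_mul, map_inv, map_inv, h2, mul_inv_cancel]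
    · intro h
      ext ⟨_, e, he, rfl⟩
      change π c * π e * (π c)⁻¹ = π e
      have h1 := (QuotientGroup.eq_one_iff (N := zpowers z) _).2 (h e he)
      have h2 : π (c * e * c⁻¹ * e⁻¹) = 1 := h1
      rw [map_mul, map_mul, map_mul, map_inv, map_inv] at h2
      exact mul_inv_eq_one.1 h2
  have hDker : D ≤ φ.ker := by
    by_contra hcon
    have hQk : Q ≤ φ.ker := by
      intro q hq
      rw [hφ]
      intro e he
      rcases hQ2 q hq e he.2 with h | h
      · have : q * e * q⁻¹ * e⁻¹ = 1 := by rw [h]; group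
        rw [this]
        exact one_mem _
      · have : q * e * q⁻¹ * e⁻¹ = z := by rw [h]; group
        rw [this]
        exact mem_zpowers z
    have h1 := hNs (φ.ker ⊓ D) inferInstance (le_inf hQk hQD) inf_le_right (fun h =>
      hcon (by rw [← h]; exact inf_le_left))
    rw [Subgroup.inf_relIndex_right] at h1
    have h2 : φ.ker.relIndex D ∣ φ.ker.index := Subgroup.relIndex_dvd_index_of_normal _ _
    have h3 : φ.ker.index ∣ Nat.card (MulAut A) := by
      rw [Subgroup.index_ker]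
      exact Subgroup.card_subgroup_dvd_card _
    have h4 := (h1.trans h2).trans h3
    rw [GH.GL4Seven.card_mulAut hA2 hj] at h4
    exact hs j hjn h4
  have hstep1 : ⁅D, E ⊓ Q⁆ ≤ zpowers z := by
    rw [commutator_le]
    intro d hd e he
    exact (hφ d).1 (hDker hd) e he
  have hZc : ∀ H : Subgroup C, ⁅zpowers z, H⁆ = ⊥ := by
    intro H
    rw [eq_bot_iff, commutator_le]
    intro a ha h hh
    rw [mem_bot, commutatorElement_eq_one_iff_mul_comm]
    rcases hZmem a ha with rfl | rfl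
    · rw [one_mul, mul_one]
    · exact (hzc h).symm
  have three : ∀ F : Subgroup C, ⁅⁅D, F⁆, D⁆ = ⊥ → ⁅D, F⁆ = ⊥ := by
    intro F hF
    rw [← hperf]
    refine commutator_commutator_eq_bot_of_rotate ?_ ?_
    · exact hF
    · rw [commutator_comm F D]
      exact hF
  have hstep2 : ⁅D, E ⊓ Q⁆ = ⊥ := by
    apply three
    rw [eq_bot_iff]
    exact (commutator_mono hstep1 le_rfl).trans (hZc D).le
  have hstep3 : ⁅D, E⁆ ≤ E ⊓ Q := by
    have h1 : ⁅D, E⁆ ≤ D ⊓ E := commutator_le_inf D E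
    have h2 : D ⊓ E ≤ Q := hN2 (D ⊓ E) inferInstance inf_le_left (hE2p _ inf_le_right)
    exact le_inf (h1.trans inf_le_right) (h1.trans h2)
  have hstep4 : ⁅D, E⁆ = ⊥ := by
    apply three
    rw [eq_bot_iff]
    refine (commutator_mono hstep3 le_rfl).trans ?_
    rw [commutator_comm, hstep2]
  intro e he
  apply hcen e
  intro q hq
  have h1 := commutator_mem_commutator (hQD hq) he
  rw [hstep4, mem_bot, commutatorElement_eq_one_iff_mul_comm] at h1
  exact h1.symm

end core

end Cfsg.Agent.H828.LT
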